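import Mathlib
import Cfsg.Agent.Lib.Helper8.OFus.Defs

/-!
# Package SPIN of the S2720 / S2721 project

`b J b⁻¹ J` (with `J` an isometric involution, the adjoint of `b` equal to `J b J` and commuting
with `b`) is an even product of reflections, and its spinor norm is the class of the determinant
of `J b J b` on the `(-1)`-eigenspace of `J`.
-/

set_option autoImplicit false

namespace Cfsg.Agent.Lib.Helper76.OFus

open Module
open Cfsg.Agent.Lib.Helper14 (reflLin reflLin_apply reflLin_of_ortho reflLin_self prod_refl_fix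
  polar_self_eq)

universe u

section

variable {F : Type*} [Field F] {V : Type*} [AddCommGroup V] [Module F V]

/-- A product of reflections along pairwise orthogonal vectors negates each of them. -/
theorem prod_refl_neg (Q : QuadraticForm F V) (l : List V) (hl : ∀ u ∈ l, Q u ≠ 0)
    (hp : l.Pairwise (fun u v => QuadraticMap.polar ⇑Q u v = 0)) (x : V) (hx : x ∈ l) :
    (l.map (reflLin Q)).prod x = -x := by
  induction l with
  | nil => simp at hx
  | cons a l ih =>
    rw [List.pairwise_cons] at hp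
    rw [List.map_cons, List.prod_cons, Module.End.mul_apply]
    rcases List.mem_cons.mp hx with rfl | hx'
    · rw [prod_refl_fix Q l x (fun u hu => by rw [QuadraticMap.polar_comm]; exact hp.1 u hu)]
      exact reflLin_self Q (hl x List.mem_cons_self)
    · rw [ih (fun u hu => hl u (List.mem_cons_of_mem _ hu)) hp.2 hx', map_neg,
        reflLin_of_ortho Q (hp.1 x hx')]

/-- An isometric involution is the product of the reflections along an orthogonal basis of its
`(-1)`-eigenspace. -/
theorem invol_data [FiniteDimensional F V] (Q : QuadraticForm F V) (h2 : (2 : F) ≠ 0)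
    (hQ : (QuadraticMap.polarBilin Q).Nondegenerate) (J : V →ₗ[F] V) (hJ : ∀ v, J (J v) = v)
    (hJQ : ∀ v, Q (J v) = Q v) (n : ℕ) (hn : finrank F (LinearMap.ker (J + 1)) = n) :
    ∃ v : Basis (Fin n) F (LinearMap.ker (J + 1)),
      (∀ i j, i ≠ j → QuadraticMap.polar ⇑Q (v i : V) (v j : V) = 0) ∧
      (∀ i, Q (v i : V) ≠ 0) ∧
      ((List.ofFn (fun i => (v i : V))).map (reflLin Q)).prod = J := by
  subst hn
  have : Invertible (2 : F) := invertibleOfNonzero h2
  set E := LinearMap.ker (J + 1) with hE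
  have hmem : ∀ x : V, x ∈ E ↔ J x = -x := by
    intro x
    rw [hE, LinearMap.mem_ker, LinearMap.add_apply, Module.End.one_apply, eq_neg_iff_add_eq_zero]
  have hpol : ∀ x y, QuadraticMap.polar ⇑Q (J x) (J y) = QuadraticMap.polar ⇑Q x y := by
    intro x y
    unfold QuadraticMap.polar
    rw [← map_add, hJQ, hJQ, hJQ]
  have hperp : ∀ e ∈ E, ∀ z, QuadraticMap.polar ⇑Q e (z + J z) = 0 := by
    intro e he z
    have h1 : QuadraticMap.polar ⇑Q e (J z) = - QuadraticMap.polar ⇑Q e z := by
      rw [← hpol e (J z), hJ, (hmem e).mp he, QuadraticMap.polar_neg_left]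
    rw [QuadraticMap.polar_add_right, h1]; ring
  have hsub : ∀ z, z - J z ∈ E := by
    intro z; rw [hmem, map_sub, hJ]; abel
  have hsep : ∀ e ∈ E, (∀ x ∈ E, QuadraticMap.polar ⇑Q e x = 0) → e = 0 := by
    intro e he h
    apply hQ.1
    intro z
    show QuadraticMap.polar ⇑Q e z = 0
    have h1 := hperp e he z
    have h2' := h (z - J z) (hsub z)
    rw [QuadraticMap.polar_add_right] at h1
    rw [QuadraticMap.polar_sub_right] at h2'
    have : (2 : F) * QuadraticMap.polar ⇑Q e z = 0 := by linear_combination h1 + h2'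
    exact (mul_eq_zero.mp this).resolve_left h2
  set B : LinearMap.BilinForm F E :=
    LinearMap.BilinForm.restrict (QuadraticMap.polarBilin Q) E with hB
  have hBsymm : B.IsSymm := ⟨fun x y => QuadraticMap.polar_comm (⇑Q) (x : V) (y : V)⟩
  obtain ⟨v, hv⟩ := LinearMap.BilinForm.exists_orthogonal_basis
    (LinearMap.BilinForm.isSymm_iff.mp hBsymm)
  have hortho : ∀ i j, i ≠ j → QuadraticMap.polar ⇑Q (v i : V) (v j : V) = 0 :=
    fun i j hij => hv hij
  have hne : ∀ i, Q (v i : V) ≠ 0 := by
    intro i hi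
    have h0 : (v i : V) = 0 := by
      apply hsep _ (v i).2
      intro x hx
      have hφ : (QuadraticMap.polarBilin Q (v i : V)) ∘ₗ E.subtype = 0 := by
        apply v.ext
        intro j
        show QuadraticMap.polar ⇑Q (v i : V) (v j : V) = 0
        by_cases hij : i = j
        · subst hij
          rw [polar_self_eq, hi, mul_zero]
        · exact hortho i j hij
      have := congrArg (fun f => f ⟨x, hx⟩) hφ
      exact this
    exact v.ne_zero i (Subtype.ext h0)
  refine ⟨v, hortho, hne, ?_⟩
  set l := List.ofFn (fun i => (v i : V)) with hl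
  have hlQ : ∀ u ∈ l, Q u ≠ 0 := by
    intro u hu
    rw [hl, List.mem_ofFn] at hu
    obtain ⟨i, rfl⟩ := hu
    exact hne i
  have hlp : l.Pairwise (fun u w => QuadraticMap.polar ⇑Q u w = 0) := by
    rw [hl, List.pairwise_ofFn]
    intro i j hij
    exact hortho i j (ne_of_lt hij)
  set P := (l.map (reflLin Q)).prod with hP
  have hPE : ∀ x : E, P (x : V) = -(x : V) := by
    have h : P ∘ₗ E.subtype = -E.subtype := by
      apply v.ext
      intro i
      simp only [LinearMap.comp_apply, Submodule.subtype_apply, LinearMap.neg_apply]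
      exact prod_refl_neg Q l hlQ hlp _ (by rw [hl, List.mem_ofFn]; exact ⟨i, rfl⟩)
    intro x
    have := congrArg (fun f => f x) h
    simpa using this
  have hPfix : ∀ z, P (z + J z) = z + J z := by
    intro z
    apply prod_refl_fix
    intro u hu
    rw [hl, List.mem_ofFn] at hu
    obtain ⟨i, rfl⟩ := hu
    exact hperp _ (v i).2 z
  ext z
  have h1 := hPE ⟨z - J z, hsub z⟩
  have h2' := hPfix z
  simp only at h1
  rw [map_sub] at h1
  rw [map_add] at h2'
  have h3 : (2 : F) • P z = (2 : F) • J z := by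
    rw [two_smul, two_smul]
    have h4 : P z + P z = (P z - P (J z)) + (P z + P (J z)) := by abel
    rw [h4, h1, h2']
    abel
  exact smul_right_injective V h2 h3

/-- **Package SPIN.** -/
theorem pkgSpin : Cfsg.Agent.Lib.Helper8.OFus.PkgSpin.{u} := by
  intro F _ _ V _ _ _ Q h2 hQ J b b' hJ hJQ hbb' hb'b hadj hcomm hE hns
  classical
  have hadj' : ∀ x y, QuadraticMap.polar ⇑Q (b x) y = QuadraticMap.polar ⇑Q x (J (b (J y))) :=
    hadj
  have hpolJ : ∀ x y, QuadraticMap.polar ⇑Q (J x) (J y) = QuadraticMap.polar ⇑Q x y := by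
    intro x y
    unfold QuadraticMap.polar
    rw [← map_add, hJQ, hJQ, hJQ]
  set J' : V →ₗ[F] V := b ∘ₗ J ∘ₗ b' with hJ'
  have hJ'app : ∀ v, J' v = b (J (b' v)) := fun v => rfl
  have hJ'inv : ∀ v, J' (J' v) = v := by
    intro v
    rw [hJ'app, hJ'app, hb'b, hJ, hbb']
  have hJ'pol : ∀ x y, QuadraticMap.polar ⇑Q (J' x) (J' y) = QuadraticMap.polar ⇑Q x y := by
    intro x y
    rw [hJ'app, hJ'app, hadj', hpolJ, hcomm, hbb', ← hadj', hbb']
  have hJ'Q : ∀ v, Q (J' v) = Q v := by
    intro v
    have := hJ'pol v v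
    rw [polar_self_eq, polar_self_eq] at this
    exact mul_left_cancel₀ h2 this
  set E := LinearMap.ker (J + 1) with hEdef
  set E' := LinearMap.ker (J' + 1) with hE'def
  have hmem : ∀ x : V, x ∈ E ↔ J x = -x := by
    intro x
    rw [hEdef, LinearMap.mem_ker, LinearMap.add_apply, Module.End.one_apply,
      eq_neg_iff_add_eq_zero]
  have hmem' : ∀ x : V, x ∈ E' ↔ J' x = -x := by
    intro x
    rw [hE'def, LinearMap.mem_ker, LinearMap.add_apply, Module.End.one_apply,
      eq_neg_iff_add_eq_zero]
  have hbE : ∀ x ∈ E, b x ∈ E' := by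
    intro x hx
    rw [hmem', hJ'app, hb'b, (hmem x).mp hx, map_neg]
  have hb'E : ∀ y ∈ E', b' y ∈ E := by
    intro y hy
    rw [hmem]
    have h1 := (hmem' y).mp hy
    rw [hJ'app] at h1
    have h2' := congrArg b' h1
    rw [hb'b, map_neg] at h2'
    exact h2'
  let bE : E ≃ₗ[F] E' := LinearEquiv.ofLinearMap (b.restrict hbE) (b'.restrict hb'E)
    (by ext y; simp [hbb']) (by ext x; simp [hb'b])
  have hbEapp : ∀ x : E, ((bE x : E') : V) = b (x : V) := fun x => rfl
  obtain ⟨n, hn⟩ : ∃ n, finrank F E = n := ⟨_, rfl⟩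
  obtain ⟨v, hvo, hvQ, hvP⟩ := invol_data Q h2 hQ J hJ hJQ n hn
  obtain ⟨v', hv'o, hv'Q, hv'P⟩ :=
    invol_data Q h2 hQ J' hJ'inv hJ'Q n (bE.finrank_eq.symm.trans hn)
  set B : LinearMap.BilinForm F E :=
    LinearMap.BilinForm.restrict (QuadraticMap.polarBilin Q) E with hB
  set B' : LinearMap.BilinForm F E' :=
    LinearMap.BilinForm.restrict (QuadraticMap.polarBilin Q) E' with hB'
  have hBapp : ∀ x y : E, B x y = QuadraticMap.polar ⇑Q (x : V) (y : V) := fun x y => rfl
  have hB'app : ∀ x y : E', B' x y = QuadraticMap.polar ⇑Q (x : V) (y : V) := fun x y => rfl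
  set w : Basis (Fin n) F E' := v.map bE with hw
  have hG : LinearMap.BilinForm.toMatrix v B = Matrix.diagonal (fun i => 2 * Q (v i : V)) := by
    ext i j
    rw [LinearMap.BilinForm.toMatrix_apply, hBapp]
    by_cases hij : i = j
    · subst hij
      rw [Matrix.diagonal_apply_eq, polar_self_eq]
    · rw [Matrix.diagonal_apply_ne _ hij, hvo i j hij]
  have hG' : LinearMap.BilinForm.toMatrix v' B' =
      Matrix.diagonal (fun i => 2 * Q (v' i : V)) := by
    ext i j
    rw [LinearMap.BilinForm.toMatrix_apply, hB'app]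
    by_cases hij : i = j
    · subst hij
      rw [Matrix.diagonal_apply_eq, polar_self_eq]
    · rw [Matrix.diagonal_apply_ne _ hij, hv'o i j hij]
  have hGw : LinearMap.BilinForm.toMatrix w B' = LinearMap.BilinForm.toMatrix v B *
      LinearMap.toMatrix v v ((J ∘ₗ b ∘ₗ J ∘ₗ b).restrict hE) := by
    rw [← LinearMap.BilinForm.toMatrix_compRight]
    ext i j
    rw [LinearMap.BilinForm.toMatrix_apply, LinearMap.BilinForm.toMatrix_apply,
      LinearMap.BilinForm.compRight_apply, hB'app, hBapp, hw, Basis.map_apply, Basis.map_apply,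
      hbEapp, hbEapp]
    exact hadj' _ _
  have hch := LinearMap.BilinForm.toMatrix_mul_basis_toMatrix (b := w) v' B'
  have hdet := congrArg Matrix.det hch
  rw [Matrix.det_mul, Matrix.det_mul, Matrix.det_transpose, hGw, Matrix.det_mul, hG, hG',
    Matrix.det_diagonal, Matrix.det_diagonal, LinearMap.det_toMatrix,
    Finset.prod_mul_distrib, Finset.prod_mul_distrib, Finset.prod_const] at hdet
  set d := (w.toMatrix v').det with hd
  set D := LinearMap.det ((J ∘ₗ b ∘ₗ J ∘ₗ b).restrict hE) with hD
  set p := ∏ i, Q (v i : V) with hp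
  set p' := ∏ i, Q (v' i : V) with hp'
  have hp0 : p ≠ 0 := Finset.prod_ne_zero_iff.mpr (fun i _ => hvQ i)
  have hp'0 : p' ≠ 0 := Finset.prod_ne_zero_iff.mpr (fun i _ => hv'Q i)
  have h2n : (2 : F) ^ (Finset.univ : Finset (Fin n)).card ≠ 0 := pow_ne_zero _ h2
  have hrel : p' = d * d * p * D := by
    apply mul_left_cancel₀ h2n
    rw [← hdet]; ring
  have hd0 : d ≠ 0 := by
    intro h0
    rw [h0] at hrel
    apply hp'0
    rw [hrel]; ring
  refine ⟨List.ofFn (fun i => (v' i : V)) ++ List.ofFn (fun i => (v i : V)), ?_, ?_, ?_, ?_⟩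
  · intro u hu
    rcases List.mem_append.mp hu with hu | hu
    · rw [List.mem_ofFn] at hu
      obtain ⟨i, rfl⟩ := hu
      exact hv'Q i
    · rw [List.mem_ofFn] at hu
      obtain ⟨i, rfl⟩ := hu
      exact hvQ i
  · rw [List.length_append, List.length_ofFn, List.length_ofFn]
    exact ⟨n, rfl⟩
  · rw [List.map_append, List.prod_append, List.map_ofFn, List.map_ofFn, List.prod_ofFn,
      List.prod_ofFn]
    show ¬ IsSquare (p' * p)
    rintro ⟨r, hr⟩
    apply hns
    refine ⟨r / (d * p), ?_⟩
    show D = r / (d * p) * (r / (d * p))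
    field_simp
    rw [hrel] at hr
    linear_combination hr
  · rw [List.map_append, List.prod_append, hv'P, hvP]
    rfl

end

end Cfsg.Agent.Lib.Helper76.OFus
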